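-- Team project SUG (S2412, helper60): leaf [GCYC] of the [GEN] cut (helper97).
import Cfsg.Agent.Lib.Helper60.SUG.GenDefs

set_option autoImplicit false

namespace Cfsg.Agent.Lib.Helper97.SUG

open Cfsg.Agent.Lib.Helper60.SUG Matrix

universe u

theorem neg_one_pow_q {F : Type u} [Field F] [Fintype F] {q : ℕ}
    (hF : Fintype.card F = q ^ 2) : (-1 : F) ^ (q + 1) = 1 := by
  rcases Nat.even_or_odd q with hq | hq
  · have h2 : ringChar F = 2 := by
      rw [FiniteField.even_card_iff_char_two, hF]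
      obtain ⟨k, rfl⟩ := hq
      have : (k + k) ^ 2 = 2 * (2 * k * k) := by ring
      rw [this]
      exact Nat.mul_mod_right 2 _
    have h3 : ((ringChar F : ℕ) : F) = 0 := CharP.cast_eq_zero F (ringChar F)
    rw [h2] at h3
    have h3' : (2 : F) = 0 := by exact_mod_cast h3
    have h4 : (-1 : F) = 1 := by linear_combination (-1 : F) * h3'
    rw [h4, one_pow]
  · exact Even.neg_one_pow (by obtain ⟨k, rfl⟩ := hq; exact ⟨k + 1, by ring⟩)

section

variable {F : Type u} [Field F] (m : ℕ)

/-- the signs -/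
def cycSign : Fin (m + 1) → F := fun j => if j = 0 then (-1) ^ (m + 1 + 1) else 1

/-- the signed cyclic permutation matrix -/
def cycMat : Matrix (Fin (m + 1)) (Fin (m + 1)) F :=
  Matrix.diagonal (cycSign m) * ((finRotate (m + 1))⁻¹ : Equiv.Perm (Fin (m + 1))).permMatrix F

theorem cycMat_mulVec (v : Fin (m + 1) → F) (j : Fin (m + 1)) :
    (cycMat (F := F) m *ᵥ v) j = cycSign m j * v ((finRotate (m + 1)).symm j) := by
  unfold cycMat
  rw [← Matrix.mulVec_mulVec, Matrix.mulVec_diagonal, Matrix.permMatrix_mulVec]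
  rfl

theorem det_cycMat : (cycMat (F := F) m).det = 1 := by
  unfold cycMat
  rw [Matrix.det_mul, Matrix.det_diagonal, Matrix.det_permutation, Equiv.Perm.sign_inv,
    sign_finRotate]
  have h1 : ∏ i, cycSign (F := F) m i = (-1) ^ (m + 1 + 1) := by
    unfold cycSign
    rw [Finset.prod_ite_eq' Finset.univ (0 : Fin (m + 1)) (fun _ => ((-1 : F)) ^ (m + 1 + 1))]
    simp
  rw [h1]
  have h2 : (((((-1 : ℤˣ) ^ (m + 1 - 1) : ℤˣ) : ℤ) : F)) = (-1) ^ m := by
    simp
  rw [h2, ← pow_add]
  exact Even.neg_one_pow ⟨m + 1, by ring⟩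

end

theorem pkgGCyc : PkgGCyc.{u} := by
  intro F _ _ q hF n hn
  obtain ⟨m, rfl⟩ : ∃ m, n = m + 1 := ⟨n - 1, by omega⟩
  have hq := neg_one_pow_q hF
  have hsq : ∀ j : Fin (m + 1), cycSign (F := F) m j ^ (q + 1) = 1 := by
    intro j
    unfold cycSign
    split_ifs
    · rw [← pow_mul, mul_comm, pow_mul, hq, one_pow]
    · exact one_pow _
  let g : Matrix.SpecialLinearGroup (Fin (m + 1)) F := ⟨cycMat m, det_cycMat m⟩
  have hg : g ∈ Cfsg.SU (m + 1) F q := by
    intro u v
    show Cfsg.hermForm (m + 1) F q (cycMat m *ᵥ u) (cycMat m *ᵥ v) = Cfsg.hermForm (m + 1) F q u v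
    unfold Cfsg.hermForm
    rw [← Equiv.sum_comp (finRotate (m + 1)).symm (fun i => u i * v i ^ q)]
    apply Finset.sum_congr rfl
    intro j _
    rw [cycMat_mulVec, cycMat_mulVec, mul_pow]
    have := hsq j
    linear_combination (u ((finRotate (m + 1)).symm j) * v ((finRotate (m + 1)).symm j) ^ q) * this
  refine ⟨⟨g, hg⟩, ?_, ?_⟩
  · intro v i j hij
    show (cycMat m *ᵥ v) j = v i
    rw [cycMat_mulVec]
    have hj0 : j ≠ 0 := by
      intro h
      rw [h] at hij
      simp at hij
    have hi : i ≠ Fin.last m := by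
      intro h
      rw [h] at hij
      have := j.isLt
      simp at hij
      omega
    have hσ : (finRotate (m + 1)).symm j = i := by
      rw [Equiv.symm_apply_eq]
      apply Fin.ext
      rw [coe_finRotate_of_ne_last hi, hij]
    rw [hσ]
    unfold cycSign
    rw [if_neg hj0, one_mul]
  · intro v i j hj hi
    show (cycMat m *ᵥ v) j = (-1) ^ (m + 1 + 1) * v i
    rw [cycMat_mulVec]
    have hj0 : j = 0 := Fin.ext (by simpa using hj)
    have hil : i = Fin.last m := Fin.ext (by simp; omega)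
    have hσ : (finRotate (m + 1)).symm j = i := by
      rw [Equiv.symm_apply_eq, hil, finRotate_last, hj0]
    rw [hσ]
    unfold cycSign
    rw [if_pos hj0]

end Cfsg.Agent.Lib.Helper97.SUG
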