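-- Team project SUG (S2412, helper60): leaf [COP3] of the [GEN] cut (helper97).
import Cfsg.Agent.Lib.Helper60.SUG.GenDefs

set_option autoImplicit false

namespace Cfsg.Agent.Lib.Helper97.SUG

open Cfsg.Agent.Lib.Helper60.SUG

universe u

/-- `x` is a power of `x * r` when `x`, `r` commute and have coprime exponents -/
theorem mem_zpowers_mul_of_coprime {G : Type u} [Group G] (x r : G) (a m : ℕ)
    (hc : Commute x r) (hx : x ^ a = 1) (hr : r ^ m = 1) (hcop : a.Coprime m) :
    x ∈ Subgroup.zpowers (x * r) := by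
  have h1 : (x * r) ^ m = x ^ m := by rw [hc.mul_pow, hr, mul_one]
  have h2 : (1 : ℤ) = a * Nat.gcdA a m + m * Nat.gcdB a m := by
    rw [← Nat.gcd_eq_gcd_ab, hcop.gcd_eq_one]
    rfl
  have h3 : x = (x * r) ^ ((m : ℤ) * Nat.gcdB a m) := by
    rw [zpow_mul, zpow_natCast, h1]
    conv_lhs => rw [← zpow_one x, h2, zpow_add, zpow_mul, zpow_natCast, hx, one_zpow, one_mul,
      zpow_mul, zpow_natCast]
  exact Subgroup.mem_zpowers_iff.mpr ⟨_, h3.symm⟩

theorem pkgCop3 : PkgCop3.{u} := by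
  intro G _ x y z a b c hxy hxz hyz hx hy hz hab hac hbc
  refine ⟨?_, ?_, ?_⟩
  · have e : x * y * z = x * (y * z) := mul_assoc x y z
    rw [e]
    refine mem_zpowers_mul_of_coprime x (y * z) a (b * c) (hxy.mul_right hxz) hx ?_
      (Nat.Coprime.mul_right hab hac)
    rw [hyz.mul_pow, pow_mul, hy, one_pow, one_mul, mul_comm b c, pow_mul, hz, one_pow]
  · have e : x * y * z = y * (x * z) := by rw [hxy.eq, mul_assoc]
    rw [e]
    refine mem_zpowers_mul_of_coprime y (x * z) b (a * c) (hxy.symm.mul_right hyz) hy ?_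
      (Nat.Coprime.mul_right hab.symm hbc)
    rw [hxz.mul_pow, pow_mul, hx, one_pow, one_mul, mul_comm a c, pow_mul, hz, one_pow]
  · have e : x * y * z = z * (x * y) := ((hxz.symm.mul_right hyz.symm).eq).symm
    rw [e]
    refine mem_zpowers_mul_of_coprime z (x * y) c (a * b) (hxz.symm.mul_right hyz.symm) hz ?_
      (Nat.Coprime.mul_right hac.symm hbc.symm)
    rw [hxy.mul_pow, pow_mul, hx, one_pow, one_mul, mul_comm a b, pow_mul, hy, one_pow]

end Cfsg.Agent.Lib.Helper97.SUG
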