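-- Team project SUG (S2412, helper60): leaf [GORD] of the [GEN] cut (helper97).
import Cfsg.Agent.Lib.Helper60.SUG.GenDefs

set_option autoImplicit false

namespace Cfsg.Agent.Lib.Helper97.SUG

open Cfsg.Agent.Lib.Helper60.SUG

universe u

theorem pkgGOrd : PkgGOrd.{u} := by
  intro F _ _ x hx
  obtain ⟨n, hp, hn⟩ := FiniteField.card F (ringChar F)
  have h1 : orderOf x ∣ Fintype.card F - 1 :=
    orderOf_dvd_of_pow_eq_one (FiniteField.pow_card_sub_one_eq_one x hx)
  have hpos : 0 < Fintype.card F := Fintype.card_pos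
  obtain ⟨k, hk⟩ : ∃ k, Fintype.card F = k + 1 := ⟨Fintype.card F - 1, by omega⟩
  have h2 : Nat.Coprime (Fintype.card F) (Fintype.card F - 1) := by
    rw [hk, Nat.add_sub_cancel]
    exact (Nat.coprime_self_add_left.mpr (Nat.coprime_one_left k)).symm.symm
  have h3 : ringChar F ∣ Fintype.card F := by
    rw [hn]
    exact dvd_pow_self _ n.pos.ne'
  exact (Nat.Coprime.coprime_dvd_left h3 h2).coprime_dvd_right h1

end Cfsg.Agent.Lib.Helper97.SUG
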